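import Mathlib
import Cfsg.Agent.H960.Card81
set_option linter.all false

/-!
Ninth roots of unity (H960).
-/

set_option autoImplicit false

namespace Cfsg.Agent.H960

variable {F : Type*} [Field F]

theorem exists_nine [Fintype F] (h : 9 ∣ Fintype.card F - 1) : ∃ ζ : F, ζ ^ 9 = 1 ∧ ζ ^ 3 ≠ 1 := by
  classical
  obtain ⟨g, hg⟩ := IsCyclic.exists_ofOrder_eq_natCard (α := Fˣ)
  rw [Nat.card_eq_fintype_card, Fintype.card_units] at hg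
  obtain ⟨k, hk⟩ := h
  have hpos : 0 < Fintype.card F - 1 := by
    have := Fintype.one_lt_card (α := F)
    omega
  have hk0 : k ≠ 0 := by
    rintro rfl
    rw [hk] at hpos
    omega
  have h9 : orderOf (g ^ k) = 9 := by
    rw [orderOf_pow_of_dvd hk0 ⟨9, by rw [hg, hk]; ring⟩, hg, hk, Nat.mul_div_cancel _ (Nat.pos_of_ne_zero hk0)]
  refine ⟨((g ^ k : Fˣ) : F), ?_, ?_⟩
  · rw [← Units.val_pow_eq_pow_val, ← h9, pow_orderOf_eq_one, Units.val_one]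
  · intro h3
    rw [← Units.val_pow_eq_pow_val, Units.val_eq_one] at h3
    have := orderOf_dvd_of_pow_eq_one h3
    rw [h9] at this
    exact absurd (Nat.le_of_dvd (by norm_num) this) (by norm_num)

theorem cube_of_nine {ζ₀ : F} (h9 : ζ₀ ^ 9 = 1) (h3 : ζ₀ ^ 3 ≠ 1) {c : F} (hc : c ^ 3 = 1) :
    ∃ ζ : F, ζ ^ 9 = 1 ∧ ζ ^ 3 = c := by
  have hθ : ζ₀ ^ 3 * ζ₀ ^ 3 + ζ₀ ^ 3 + 1 = 0 := by
    have h1 : (ζ₀ ^ 3 - 1) * (ζ₀ ^ 3 * ζ₀ ^ 3 + ζ₀ ^ 3 + 1) = 0 := by linear_combination h9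
    exact (mul_eq_zero.1 h1).resolve_left (sub_ne_zero.2 h3)
  rcases cube_cases hθ hc with h | h | h
  · exact ⟨1, one_pow _, by rw [h, one_pow]⟩
  · exact ⟨ζ₀, h9, h.symm⟩
  · refine ⟨ζ₀ ^ 2, ?_, ?_⟩
    · rw [← pow_mul, mul_comm, pow_mul, h9, one_pow]
    · rw [h]; ring

end Cfsg.Agent.H960
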